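import Cfsg.Agent.Lib.Helper35.SuzOrd.X0.Data

set_option Elab.async false

namespace Cfsg.Agent.Lib.Helper35.SuzOrd.X0

open Cfsg.Agent.Lib.Helper35

theorem q0c0 : allBelow (fun k => fq0 (Nat.add 0 k)) 1782 = true := by decide +kernel
theorem q0u0 : ∀ i, i < 1782 → fq0 i = true := below_step fq0 0 1782 1782 (below_zero fq0) q0c0 rfl
theorem m0z : countBelow fm0 0 = 0 := rfl
theorem m0k0 : countBelow (fun k => fm0 (Nat.add 0 k)) 1782 = 1782 := by decide +kernel
theorem m0n0 : countBelow fm0 1782 = 1782 := countBelow_step fm0 0 1782 1782 0 1782 1782 m0z m0k0 rfl rfl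
theorem q1c0 : allBelow (fun k => fq1 (Nat.add 0 k)) 1782 = true := by decide +kernel
theorem q1u0 : ∀ i, i < 1782 → fq1 i = true := below_step fq1 0 1782 1782 (below_zero fq1) q1c0 rfl
theorem m1z : countBelow fm1 0 = 0 := rfl
theorem m1k0 : countBelow (fun k => fm1 (Nat.add 0 k)) 1782 = 416 := by decide +kernel
theorem m1n0 : countBelow fm1 1782 = 416 := countBelow_step fm1 0 1782 1782 0 416 416 m1z m1k0 rfl rfl
theorem y0c0 : allBelow (fun k => fy0 (Nat.add 0 k)) 1782 = true := by decide +kernel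
theorem y0u0 : ∀ i, i < 1782 → fy0 i = true := below_step fy0 0 1782 1782 (below_zero fy0) y0c0 rfl

end Cfsg.Agent.Lib.Helper35.SuzOrd.X0
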